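import Cfsg.Agent.INV.R2.Defs
import Cfsg.Agent.CLAS.FieldAut
import Cfsg.Agent.CLAS.SLBasic
import Cfsg.Agent.CHEV.Cq.PsiN

/-! A field involution on `SL₂(q)` with solvable fixed points. -/

set_option autoImplicit false
set_option maxHeartbeats 400000

namespace CL.G3S.SL2b

open Matrix Subgroup CL.R2 CL.FieldAut
open scoped MatrixGroups commutatorElement

variable {F : Type*} [Field F]

theorem hilbert [Finite F] {m : ℕ} {φ : F ≃+* F} (h1 : φ ≠ 1) (h2 : φ * φ = 1) {g : Matrix (Fin m) (Fin m) F}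
    (hg : g * g.map φ = 1) : ∃ y : Matrix (Fin m) (Fin m) F, y.det ≠ 0 ∧ g * y.map φ = y := by
  let s : (Fin m → F) →+ (Fin m → F) :=
    { toFun := fun v => g *ᵥ fun i => φ (v i)
      map_zero' := by simp [← Pi.zero_def]
      map_add' := fun v w => by rw [← mulVec_add]; congr 1; ext i; simp }
  have o : orderOf φ = 2 := orderOf_eq_prime (by rw [pow_two, h2]) h1
  obtain ⟨b, hb⟩ := CL.FieldAut.exists_basis_fixed (isOfFinOrder_of_finite φ) s
    (fun c v => by
      show g *ᵥ _ = φ c • g *ᵥ _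
      rw [← mulVec_smul]; congr 1; ext i; simp)
    (fun v => by
      rw [o]
      show g *ᵥ (fun i => φ ((g *ᵥ fun i => φ (v i)) i)) = v
      have : (fun i => φ ((g *ᵥ fun i => φ (v i)) i)) = g.map φ *ᵥ v := by
        ext i
        simp [mulVec, dotProduct, map_sum, show ∀ a, φ (φ a) = a from fun a => congr($h2 a)]
      rw [this, mulVec_mulVec, hg, one_mulVec])
    (ι := Fin m) (by simp)
  refine ⟨(Pi.basisFun F (Fin m)).toMatrix b, ?_, ?_⟩
  · have := Module.Basis.invertibleToMatrix (Pi.basisFun F (Fin m)) b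
    exact (isUnit_det_of_invertible _).ne_zero
  · ext i j
    simpa [Matrix.mul_apply, Module.Basis.toMatrix_apply, s, mulVec, dotProduct] using congrFun (hb j) i

/-- Conjugation by an invertible matrix. -/
noncomputable def cj {b : Matrix (Fin 2) (Fin 2) F} (hb : b.det ≠ 0) : SL(2, F) →* SL(2, F) where
  toFun s := ⟨b * s.1 * b⁻¹, by rw [det_conj ((isUnit_iff_isUnit_det _).2 hb.isUnit), s.2]⟩
  map_one' := Subtype.ext (by
    show b * 1 * b⁻¹ = 1
    rw [mul_one, mul_nonsing_inv _ hb.isUnit])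
  map_mul' s r := Subtype.ext (by
    show b * (s.1 * r.1) * b⁻¹ = b * s.1 * b⁻¹ * (b * r.1 * b⁻¹)
    simp only [mul_assoc]
    rw [nonsing_inv_mul_cancel_left _ _ hb.isUnit])

theorem cj_mul {b : Matrix (Fin 2) (Fin 2) F} (hb : b.det ≠ 0) (s : SL(2, F)) : (cj hb s).1 * b = b * s.1 :=
  nonsing_inv_mul_cancel_right _ _ hb.isUnit

theorem field {G : Type*} [Group G] [Finite G] [Fintype F] (hF : Odd (Fintype.card F))
    {ι : SL(2, F) →* G} (hι : Function.Injective ι) {t : G} (t2 : t * t = 1)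
    {a : Matrix (Fin 2) (Fin 2) F} {σ : F ≃+* F} (H : CL.R2.Acts ι t a σ) (hσ : σ ≠ 1)
    (sol : ∀ X : Subgroup G, X ≤ centralizer {t} → X ≤ ι.range → ⁅X, X⁆ = X → X = ⊥) :
    Fintype.card F = 9 := by
  obtain ⟨σ2, ha⟩ := (H.mul H).scalar hι fun s => by rw [t2]; exact Commute.one_left _
  have hd := (H.mul H).det
  generalize (a * a.map σ) 0 0 = μ at ha
  have σσ : ∀ x, σ (σ x) = x := fun x => congr($σ2 x)
  have μ0 : μ ≠ 0 := fun e => hd (by simp [ha, e])
  have hμ : σ μ = μ := by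
    have e1 : a.map σ * a = σ μ • (1 : Matrix (Fin 2) (Fin 2) F) := by
      have := congrArg (·.map σ) ha
      simp only [map_mul_equiv] at this
      rw [show (a.map σ).map σ = a by ext i j; simp [σσ]] at this
      rw [this]
      ext i j
      by_cases e : i = j <;> simp [e, Matrix.one_apply]
    have e2 : a * (σ μ • (1 : Matrix (Fin 2) (Fin 2) F)) = a * (μ • 1) := by
      rw [← e1, ← mul_assoc, ha]; simp
    simpa using congrFun (congrFun (left_cancel_of_det H.det e2) 0) 0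
  obtain ⟨x, hx⟩ : ∃ x, σ x ≠ x := by
    by_contra! e
    exact hσ (RingEquiv.ext e)
  obtain ⟨d, hd'⟩ := CL.Cq.PsiN.surj σ hx σσ μ0 hμ
  have d0 : d ≠ 0 := fun e => μ0 (by rw [← hd', e, zero_mul])
  have H' := H.smul (inv_ne_zero d0)
  have e1 : d⁻¹ • a * (d⁻¹ • a).map σ = 1 := by
    rw [show (d⁻¹ • a).map σ = (σ d)⁻¹ • a.map σ by ext i j; simp, smul_mul_smul_comm, ha, smul_smul,
      ← mul_inv, hd', inv_mul_cancel₀ μ0, one_smul]
  generalize d⁻¹ • a = a' at H' e1
  obtain ⟨b, b0, hb⟩ := hilbert hσ σ2 e1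
  have o : orderOf σ = 2 := orderOf_eq_prime (by rw [pow_two, σ2]) hσ
  have hc := card_fixF_pow σ
  rw [o, Nat.card_eq_fintype_card (α := F)] at hc
  by_contra h9
  have h4 : 4 ≤ Nat.card (fixF σ) := by
    have h1 : 1 < Nat.card (fixF σ) := Finite.one_lt_card
    by_contra! h
    interval_cases Nat.card (fixF σ)
    · rw [← hc] at hF; exact absurd hF (by decide)
    · exact h9 hc.symm
  obtain ⟨c, c0, c2⟩ := CL.SL.exists_sq_ne_one_of_four_le_card h4
  have hp : commutator SL(2, fixF σ) = ⊤ := CL.SL.commutator_eq_top_of_sq_ne_one c0 c2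
  let m : SL(2, fixF σ) →* SL(2, F) := SpecialLinearGroup.map (fixF σ).subtype
  let j := ι.comp ((cj b0).comp m)
  have hX := sol j.range (by
    rintro _ ⟨s, rfl⟩
    refine mem_centralizer_singleton_iff.2 (mul_inv_eq_iff_eq_mul.1 (H'.conj (s := cj b0 (m s)) (s' := cj b0 (m s)) ?_)).symm
    have e2 : (m s).1.map σ = (m s).1 := by
      ext i k
      exact mem_fixF.1 (s.1 i k).2
    refine right_cancel_of_det (det_map_ne b0 σ) ?_
    rw [mul_assoc, hb, cj_mul, mul_assoc, ← map_mul_equiv, cj_mul, map_mul_equiv, ← mul_assoc, hb, e2])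
    (by rintro _ ⟨s, rfl⟩; exact ⟨_, rfl⟩) (by
      rw [j.range_eq_map, ← map_commutator, ← _root_.commutator_def, hp])
  have e3 : cj b0 (m (-1)) = 1 := hι ((mem_bot.1 (hX.le ⟨-1, rfl⟩)).trans (map_one ι).symm)
  have e4 := cj_mul b0 (m (-1))
  rw [e3] at e4
  have e5 := congrFun (congrFun (left_cancel_of_det b0 (x := 1) ((mul_one b).trans ((one_mul b).symm.trans e4))) 0) 0
  have e6 : (1 : F) = -1 := by simpa [m] using e5
  exact CL.ABG.two_ne_zero_of_odd' hF (by linear_combination e6)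

end CL.G3S.SL2b
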